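import Cfsg.Agent.J4B.NuG
import Cfsg.Agent.Comp.J4.Index
import Cfsg.Agent.Comp.Sign
import Cfsg.Agent.H2.Schur6
import Cfsg.Agent.S2038

/-! The multiplier of `J₄`. -/

set_option autoImplicit false
set_option maxRecDepth 100000

namespace Cfsg.Agent.J4B
open Cfsg Cfsg.Agent.Golay Cfsg.Agent.Comp Cfsg.Agent.H2.Schur
open Cfsg.Agent.Comp.J4 (s io io_ev pres R H index_H)
open scoped Pointwise commutatorElement

instance finJ : Finite J := Nat.finite_of_card_ne_zero (by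
  rw [← H.index_mul_card, index_H, card_H]; norm_num)

theorem perfect_M24 : Group.IsPerfect M24 :=
  have := simple_M24
  ⟨commutator_eq_top_of_simple (by rw [card_M24]; norm_num)⟩

theorem nu_list {L : List GolayPt} (h : L.Nodup) : nu L.toFinset = (L.map (D none)).prod := by
  induction L with
  | nil => rfl
  | cons a L ih =>
    rw [List.nodup_cons] at h
    rw [List.toFinset_cons, nu_insert (by simpa using h.1), ih h.2, List.map_cons, List.prod_cons]

section
variable {G : Type*} [Group G] {ι : M24 →* G} {r : ℕ → G} (hr : ∀ a < 3, ι (J4A.t a) = r a)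
  (ht : r 3 * r 3 = 1) (hc : Cen ι (r 3) A0)
include hr

theorem satG : Sat r J4A.R := fun w hw => by
  rw [← J4.i_ev hr (J4A.hR w hw), J4A.sat_t w hw, map_one]

include ht
theorem ev_iwG {w : List ℕ} (h : ∀ x ∈ w, x < 4) : ev r (iw w) = (ev r w)⁻¹ := by
  induction w with
  | nil => simp [iw]
  | cons a w ih =>
    obtain ⟨h1, h2⟩ := List.forall_mem_cons.1 h
    rw [iw, List.reverse_cons, List.map_append, ev_append, ← iw, ih h2, ev_cons, mul_inv_rev]
    congr 1
    interval_cases a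
    · simpa using eq_inv_of_mul_eq_one_right (by simpa using satG hr [0, 0] (by decide))
    · simpa using eq_inv_of_mul_eq_one_right (by simpa using satG hr [1, 2] (by decide))
    · simpa using eq_inv_of_mul_eq_one_right (by simpa using satG hr [2, 1] (by decide))
    · simpa using eq_inv_of_mul_eq_one_right ht

include hc
theorem pw_trsG {W : List (List ℕ)} (h : ∀ w ∈ W, ∀ x ∈ w, x < 3) :
    pw 3 (cj ι (r 3) A0) (trs W) = ev r (W.flatMap fun w => w ++ 3 :: iw w) := by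
  induction W with
  | nil => rfl
  | cons w W ih =>
    obtain ⟨h1, h2⟩ := List.forall_mem_cons.1 h
    have := (Eqv.aw ⟨cj_sq ht, hc.smul⟩ (ev J4A.t w)
      (ok_of (k := 3) (w := ([cA], one)) (by decide +kernel)).1).2
    rw [J4A.pc_ev, J4.i_ev hr h1, ← ev_iwG hr ht fun x hx => (h1 x hx).trans (by norm_num),
      show pw 3 (cj ι (r 3) A0) [cA] = r 3 from (mul_one _).trans hc.self] at this
    rw [List.flatMap_cons, ev_append, ← ih h2, ev_append, ev_cons, ← mul_assoc (ev r w), ← this,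
      ← pw_append, aw, force_eq, mapL_eq]
    rfl

theorem of_rl (W : List (List ℕ)) (p u : List ℕ) {w : Wd} (h : (∀ w ∈ W, ∀ x ∈ w, x < 3) ∧
    (∀ x ∈ p, x < 3) ∧ J4A.nf ((W.flatMap fun w => w ++ 3 :: iw w) ++ p) = J4A.nf u ∧
    w = (trs W, J4A.evc p)) (e : pw 3 (cj ι (r 3) A0) w.1 * ι (tm w.2) = 1) : ev r u = 1 := by
  obtain ⟨h1, h2, h5, h7⟩ := h
  rwa [h7, pw_trsG hr ht hc h1, ← J4A.pc_ev, tm_pc, J4.i_ev hr h2, ← ev_append,
    ← J4A.ev_nf (satG hr), h5, J4A.ev_nf (satG hr)] at e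

theorem sat_of (e1 : pw 3 (cj ι (r 3) A0) r1.1 * ι (tm r1.2) = 1)
    (e2 : pw 3 (cj ι (r 3) A0) r2.1 * ι (tm r2.2) = 1) : Sat r R := fun w hw => by
  have c : ∀ u ∈ [[0], wL], ev r (3 :: (iw u ++ 3 :: u)) = 1 := fun u hu => by
    obtain ⟨h1, h2⟩ := (by decide +kernel : ∀ w ∈ [[0], wL], (∀ x ∈ w, x < 3) ∧
      Nat.xor (actF 3 (mat (J4A.evc w)) cA) cA = 0) u hu
    have := hc (ev J4A.t u) (fixTest_fd cA_ok.1 _ (ev J4A.t u).2 (by rwa [J4A.pc_ev]))
    rw [ev_cons, ev_append, ev_iwG hr ht fun x hx => (h1 x hx).trans (by norm_num), ev_cons,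
      ← J4.i_ev hr h1, ← this, inv_mul_cancel_left, ht]
  rcases (by decide +kernel : ∀ w ∈ R, w ∈ J4A.R ∨ w = [3, 3] ∨
    (∃ u ∈ [[0], wL], w = 3 :: (iw u ++ 3 :: u)) ∨ w = R.getD 12 [] ∨ w = R.getD 13 []) w hw with
    h | rfl | ⟨u, hu, rfl⟩ | rfl | rfl
  · exact satG hr w h
  · simpa using ht
  · exact c u hu
  · exact of_rl hr ht hc [[1, 0, 1, 0, 2, 0, 1, 0, 2], [2, 0, 1, 0, 2, 0, 1, 0, 2], [0, 1, 0, 2, 0, 1, 0, 2]] [] _ (by decide +kernel) e1
  · exact of_rl hr ht hc [[1, 0, 1, 0, 1, 0, 1, 1, 0, 1, 0, 1, 0, 1, 1, 0, 1, 0, 1, 0, 1], [1, 0, 1, 0, 1, 0, 1, 1, 0, 1, 0, 1, 0, 1, 1, 0, 1, 0, 1, 0, 2, 0, 2, 0, 2, 0, 2, 0, 2, 0, 2, 0, 2, 2, 0, 2, 0, 2, 0], [1, 0, 1, 0, 1, 0, 1, 1, 0, 1, 0, 1, 0, 1, 1, 0, 1, 0, 1, 0, 1, 1, 0, 1, 0, 1, 0, 1, 1, 0, 1, 0, 1, 0, 1, 1, 0, 1, 0, 1, 0, 1], [1, 0, 1, 0, 1, 0, 1, 1, 0, 1, 0, 1, 0, 1, 1, 0, 1, 0, 1, 0, 1, 1, 0, 1, 0, 1, 0, 1, 1, 0, 1, 0, 1, 0, 1, 1, 0, 1, 0, 1, 0, 2, 0, 2, 0, 2, 0, 2, 0, 2,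 0, 2, 0, 2, 2, 0, 2, 0, 2, 0]]
      [1, 0, 1, 0, 1, 0, 1, 1, 0, 1, 0, 1, 0, 1, 1, 0, 1, 0, 1, 0, 1, 1, 0, 1, 0, 1, 0, 1, 1, 0, 1, 0, 1, 0, 1, 1, 0, 1, 0, 1, 0, 1] _ (by decide +kernel) e2
end

theorem anti {G : Type*} [Group G] {c : G} (hc : c ∈ Subgroup.center G) {x : G} {L : List G}
    (h : ∀ y ∈ L, x * y = c * (y * x)) : x * L.prod = c ^ L.length * (L.prod * x) := by
  induction L with
  | nil => simp
  | cons y L ih =>
    obtain ⟨h1, h2⟩ := List.forall_mem_cons.1 h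
    rw [List.prod_cons, ← mul_assoc, h1, mul_assoc, mul_assoc, ih h2, ← mul_assoc y,
      Subgroup.mem_center_iff.1 (pow_mem hc _) y, List.length_cons, pow_succ']
    simp [mul_assoc]

variable {Γ : Type} [Group Γ] {σ : Γ →* J} {η : M24 →* Γ}
  (hσ : CExt σ) (hη : σ.comp η = io)
include hσ hη

theorem cen_lift {d : Γ} (hd : σ d = D none (some 0)) : Cen η d P0 := fun g hg => by
  have := simple_M22
  have : Group.IsPerfect Spor.M22 := ⟨commutator_eq_top_of_simple (by rw [card_M22]; norm_num)⟩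
  let f : Spor.M22 →* M24 := Subgroup.inclusion (M22_eq ▸ fun _ h => h.1)
  have := hom_eq_of_perfect hσ.cent (η := (MulAut.conj d).toMonoidHom.comp (η.comp f))
    (η' := η.comp f) (MonoidHom.ext fun b => by
      have h1 := DFunLike.congr_fun hη (f b)
      have h2 := cenD (f b) (mem_St.1 (M22_eq.le b.2)).2
      rw [D0] at h2
      rw [MonoidHom.comp_apply] at h1
      simp [h1, hd, ← h2])
  have := DFunLike.congr_fun this ⟨g.1, M22_eq.ge (mem_St.2 ⟨g.2, hg⟩)⟩
  exact (mul_inv_eq_iff_eq_mul.1 this).symm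

theorem exists_DS : ∃ E, DS η E ∧ ∀ a b, σ (E a b) = D a b := by
  have m : ∀ d, σ d = D none (some 0) → ∀ a b, σ (DG η d a b) = D a b := fun d hd a b => by
    rw [DG, map_cj σ hη, hd, ← D0]; rfl
  have z : ∀ {x}, σ x = 1 → ∀ y, y * x = x * y := fun h => Subgroup.mem_center_iff.1 (hσ.cent h)
  obtain ⟨d, hd, h0⟩ : ∃ d, σ d = D none (some 0) ∧
      DG η d none (some 0) * DG η d (some 0) (some 1) = DG η d none (some 1) := by
    obtain ⟨d, hd⟩ := hσ.surj (D none (some 0))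
    obtain ⟨c, hc⟩ : ∃ c, DG η d none (some 0) * DG η d (some 0) (some 1) * c =
      DG η d none (some 1) := ⟨_, mul_inv_cancel_left _ _⟩
    have h1 : σ c = 1 := by
      have := congrArg σ hc
      rwa [map_mul, map_mul, m d hd, m d hd, m d hd, D_mul, mul_eq_left] at this
    have h2 : σ (d * c) = D none (some 0) := by rw [map_mul, h1, mul_one, hd]
    have h3 : ∀ a b, a ≠ b → DG η (d * c) a b = DG η d a b * c := fun a b e => by
      obtain ⟨x, h4, h5⟩ := (by decide +kernel : ∀ a b : GolayPt, ∃ c, a ≠ c ∧ b ≠ c) a b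
      obtain ⟨g, rfl, rfl, -⟩ := three e h4 h5
      rw [(cen_lift hσ hη hd).DG_smul, (cen_lift hσ hη h2).DG_smul, DG, DG,
        (cen_lift hσ hη hd).self, (cen_lift hσ hη h2).self, mul_assoc _ _ c, z h1 (η g)⁻¹]
      simp [mul_assoc]
    refine ⟨_, h2, ?_⟩
    rw [h3 _ _ (by decide), h3 _ _ (by decide), h3 _ _ (by decide), ← hc, ← mul_assoc,
      mul_assoc _ c, ← z h1, ← mul_assoc]
  have C := cen_lift hσ hη hd
  have M := C.DG_mul h0
  refine ⟨_, ⟨C.DG_smul, M, ?_⟩, m d hd⟩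
  have h1 : σ (d * d) = 1 := by rw [map_mul, hd]; nth_rw 2 [D_sym]; rw [D_mul, D_self]
  have h2 : ∀ a b, a ≠ b → DG η d a b * DG η d a b = d * d := fun a b e => by
    obtain ⟨x, h4, h5⟩ := (by decide +kernel : ∀ a b : GolayPt, ∃ c, a ≠ c ∧ b ≠ c) a b
    obtain ⟨g, rfl, rfl, -⟩ := three e h4 h5
    rw [C.DG_smul, DG, C.self, ← sq, conj_pow, sq, z h1, mul_inv_cancel_right]
  have h3 : ∀ a b, DG η d b a = (DG η d a b)⁻¹ := fun a b =>
    eq_inv_of_mul_eq_one_left (by rw [M, DG_self])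
  generalize d * d = c at h1 h2
  have h4 : c * c = 1 := by
    nth_rw 1 [← h2 none (some 0) (by decide)]
    rw [← h2 (some 0) none (by decide), h3 none]
    group
  have h5 : ∀ a b, a ≠ none → b ≠ none → a ≠ b →
      DG η d none a * DG η d none b = c * (DG η d none b * DG η d none a) := fun a b ha hb e => by
    have e1 := h2 a b e
    have e2 := h2 _ _ ha.symm
    have e3 := h2 _ _ hb.symm
    rw [← M a none b, h3 none a] at e1
    generalize DG η d none a = x at *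
    generalize DG η d none b = y at *
    calc _ = x * x * (x⁻¹ * y * (x⁻¹ * y) * (y⁻¹ * x)) := by group
      _ = y⁻¹ * x := by rw [e2, e1, ← mul_assoc, h4, one_mul]
      _ = _ := by
        rw [← eq_inv_of_mul_eq_one_left (show c * y * y = 1 by rw [mul_assoc, e3, h4]), mul_assoc]
  have h6 : c = 1 := by
    let L : List GolayPt := [1, 2, 3, 4, 7, 10, 12].map Golay.pt
    have e1 := anti (hσ.cent h1) (x := DG η d none (Golay.pt 0)) (L := L.map (DG η d none))
      (List.forall_mem_map.2 fun b hb => h5 _ b (by decide +kernel)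
        (by revert b; decide +kernel) (by revert b; decide +kernel))
    have e2 : σ (DG η d none (Golay.pt 0) * (L.map (DG η d none)).prod) = 1 := by
      rw [← nu_CW (s := (Golay.pt 0 :: L).toFinset) ((mem_CW_iff_syn _).2 (by decide +kernel)),
        ← List.prod_cons, ← List.map_cons, map_list_prod, List.map_map, nu_list (by decide +kernel)]
      exact congrArg _ (List.map_congr_left fun a _ => m d hd _ _)
    have e3 := z e2 (DG η d none (Golay.pt 0))
    rw [mul_assoc, mul_right_inj, e1, mul_eq_right, show (L.map (DG η d none)).length = 2 * 3 + 1 by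
      simp [L], pow_succ, pow_mul, sq, h4] at e3
    simpa using e3
  intro a b
  by_cases e : a = b
  · rw [e]
  · rw [h3 a b, eq_inv_iff_mul_eq_one, h2 a b e, h6]

theorem pow_ker {k : Γ} (hk : k ∈ skr σ) : k ^ 173067389 = 1 := by
  obtain ⟨E, h, m⟩ := exists_DS hσ hη
  have mn := h.map_nu σ (m none)
  have cw := fun s => h.nu_CW (s := s) fun o ho => hσ.cent ((mn o).trans (nu_CW ho.1))
  let W : Subgroup Γ :=
    { carrier := {x | ∃ a : Finset GolayPt, Even a.card ∧ ∃ g : M24, x = h.nu a * η g}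
      one_mem' := ⟨∅, by simp, 1, by rw [map_one, mul_one]; rfl⟩
      mul_mem' := by
        rintro _ _ ⟨a, ha, g, rfl⟩ ⟨b, hb, k, rfl⟩
        exact ⟨symmDiff a (g.1 • b), even_symmDiff ha (by rwa [Finset.card_smul_finset]), g * k, by
          rw [h.nu_symmDiff, h.nu_smul g hb, map_mul]; group⟩
      inv_mem' := by
        rintro _ ⟨a, ha, g, rfl⟩
        refine ⟨(g⁻¹).1 • a, by rwa [Finset.card_smul_finset], g⁻¹, ?_⟩
        rw [h.nu_smul _ ha, map_inv, mul_inv_rev, inv_eq_of_mul_eq_one_right (a := h.nu a)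
          (by rw [← h.nu_symmDiff, symmDiff_self]; rfl)]
        group }
  have mw : ∀ a g, σ (h.nu a * η g) = nu a * io g := fun a g => by rw [map_mul, mn, ← hη]; rfl
  have h1 : commutator (H.comap σ) ≤ W.comap (H.comap σ).subtype := by
    have l : ∀ x : H.comap σ, ∃ w ∈ W, σ x = σ w := fun x => by
      obtain ⟨_, ⟨a, rfl⟩, g, e⟩ := mem_H.1 x.2
      obtain ⟨b, hb, e', -⟩ := exists_even a
      exact ⟨_, ⟨b, hb, g, rfl⟩, by rw [mw, e', e]⟩
    refine Subgroup.commutator_le.2 fun x _ y _ => ?_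
    obtain ⟨a, ha, e1⟩ := l x
    obtain ⟨b, hb, e2⟩ := l y
    rw [Subgroup.mem_comap, map_commutatorElement, Subgroup.subtype_apply, Subgroup.subtype_apply,
      comm_eq_of_map_eq hσ.cent e1 e2]
    exact W.mul_mem (W.mul_mem (W.mul_mem ha hb) (W.inv_mem ha)) (W.inv_mem hb)
  obtain ⟨q, h2, h3⟩ := pow_index_mem hσ H hk
  obtain ⟨a, ha, g, e⟩ := h1 h3
  have h4 : nu a * io g = 1 := by rw [← mw, ← e]; exact congrArg Subtype.val h2
  have h5 : g = 1 := eq_one_of_mem (eq_inv_of_mul_eq_one_right h4 ▸ VV.inv_mem (nu_mem a))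
  rw [h5, map_one, mul_one] at h4 e
  rw [← index_H]
  exact e.trans (cw _ ((nu_eq_one ha).1 h4))

omit hη in
theorem sq_ker (hs : σ.ker ≤ commutator Γ) {k : Γ} (hk : σ k = 1) (h : k * k = 1) : k = 1 := by
  have := perfect_M24
  obtain ⟨η, hη⟩ := exists_lift_of_trivial S2038.result hσ io
  have := pow_ker hσ hη (k := k) ⟨hk, hs hk⟩
  rwa [show 173067389 = 2 * 86533694 + 1 from rfl, pow_succ, pow_mul, sq, h, one_pow, one_mul] at this

omit hσ hη in
theorem mult : HasCyclicSchurMultiplier J 1 := has_one_of fun Γ _ _ σ hs => by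
  have hσ := cext_of_stem hs
  have sk := fun k => sq_ker hσ hs.2.2 (k := k)
  have c : ∀ {x}, σ x = 1 → ∀ y, y * x = x * y := fun h => Subgroup.mem_center_iff.1 (hσ.cent h)
  have := perfect_M24
  obtain ⟨η, hη⟩ := exists_lift_of_trivial S2038.result hσ io
  have hi : ∀ g, σ (η g) = io g := DFunLike.congr_fun hη
  obtain ⟨τ, h1, h2⟩ : ∃ τ, σ τ = z ∧ τ * τ = 1 := by
    obtain ⟨τ, h⟩ := hσ.surj z
    refine ⟨τ ^ 173067389, ?_, ?_⟩
    · rw [map_pow, h, show 173067389 = 2 * 86533694 + 1 from rfl, pow_succ, pow_mul, sq, zz, one_pow,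
        one_mul]
    · have e : σ (τ * τ) = 1 := by rw [map_mul, h, zz]
      rw [← (Commute.refl τ).mul_pow, pow_ker hσ hη ⟨e, hs.2.2 e⟩]
  have h3 : Cen η τ A0 := fun g hg => by
    have e : σ (η g * τ * (η g)⁻¹ * τ) = 1 := by
      rw [map_mul, map_mul, map_mul, map_inv, hi, h1, cenA g hg, mul_inv_cancel_right, zz]
    have := sk _ e (by
      rw [mul_assoc, c e τ]
      calc _ = η g * (τ * τ) * (η g)⁻¹ * (τ * τ) := by group
        _ = 1 := by rw [h2]; group)
    rwa [← h2, mul_left_inj, mul_inv_eq_iff_eq_mul] at this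
  let r : ℕ → Γ := fun a => if a < 3 then η (J4A.t a) else τ
  have E : Eqv η (cj η τ A0) := ⟨cj_sq h2, h3.smul⟩
  have m : ∀ w : Wd, Rl 3 cT io w → σ (pw 3 (cj η τ A0) w.1 * η (tm w.2)) = 1 := fun w h => by
    rw [← h.2, map_mul, hi, pw, pw, map_list_prod, List.map_map]
    exact congrArg (fun l : List J => l.prod * _)
      (List.map_congr_left fun a _ => (map_cj σ hη _ _).trans (by rw [h1]; rfl))
  refine (pres.univ Γ r (sat_of (ι := η) (fun a h => (if_pos h).symm) h2 h3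
    (sk _ (m _ rl1) ?_) (sk _ (m _ rl2) ?_))).elim fun φ hφ => ?_
  rotate_right
  · refine ker_eq_bot_of_section hs (s := φ) (MonoidHom.eq_of_eqOn_top fun x hx =>
      (gen_le (K := MonoidHom.eqLocus _ _)).2 (fun a ha => ?_) (pres.top ▸ hx))
    change σ (φ (s a)) = s a
    rw [hφ a ha]
    by_cases e : a < 3
    · exact (congrArg σ (if_pos e)).trans ((hi _).trans (J4.io_t a e))
    · exact (congrArg σ (if_neg e)).trans (h1.trans (congrArg s (by omega)))
  · have e := m _ rl1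
    rw [show r1.2 = one from rfl, tm_one, map_one, mul_one] at e ⊢
    have := (E.aw (tm 0x456c9849d32c5a258e97399e453020) rl1.1.1).2
    rw [pc_tm (by decide +kernel), show aw 3 _ r1.1 = r1.1.reverse by decide +kernel, E.rev, c e,
      mul_inv_cancel_right] at this
    exact inv_eq_iff_mul_eq_one.1 this
  · have e := m _ rl2
    have h4 := (E.aw (tm r2.2) rl2.1.1).2
    have h5 := (E.aw (tm r2.2) (w := r2.1.drop 3) fun a h => rl2.1.1 a (List.mem_of_mem_drop h)).2
    rw [pc_tm (by decide +kernel)] at h4 h5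
    rw [show aw 3 _ r2.1 = r2.1 by decide +kernel] at h4
    rw [show aw 3 _ (r2.1.drop 3) = r2.1.drop 3 by decide +kernel] at h5
    have h6 : η (tm r2.2) * η (tm r2.2) = 1 := by
      rw [← map_mul, ← map_one η, ← tm_one, ← tm_pc (_ * _), Subgroup.coe_mul, ← mul_pc,
        pc_tm (by decide +kernel), show mul r2.2 r2.2 = one by decide +kernel]
    have h7 := (E.red (k := 3) (r2.1 ++ (r2.1.drop 3 ++ (r2.1 ++ r2.1.drop 3)))).2
    have h8 := (E.red (k := 3) (r2.1.drop 3 ++ r2.1.drop 3)).2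
    rw [show red _ = [] by decide +kernel, pw_append] at h7 h8
    rw [pw_append, pw_append] at h7
    rw [show r 3 = τ from rfl]
    generalize pw 3 (cj η τ A0) r2.1 = W at *
    generalize pw 3 (cj η τ A0) (r2.1.drop 3) = x at *
    generalize η (tm r2.2) = P at *
    have h9 := c e x
    rw [mul_assoc, mul_inv_eq_iff_eq_mul.1 h5.symm, ← mul_assoc, ← mul_assoc, mul_left_inj] at h9
    rw [← mul_assoc x, h9, mul_assoc W, ← h8] at h7
    rw [mul_assoc, ← mul_assoc P, mul_inv_eq_iff_eq_mul.1 h4.symm, mul_assoc, h6]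
    exact h7.symm

end Cfsg.Agent.J4B
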