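import Cfsg.Agent.J4B.H

/-! Equivariant images of the even sets of points in any group. -/

set_option autoImplicit false

namespace Cfsg.Agent.J4B
open Cfsg Cfsg.Agent.Golay Cfsg.Agent.Comp
open Cfsg.Agent.Comp.J4 (io)
open scoped Pointwise

variable {G : Type*} [Group G] {ι : M24 →* G} {d : G}

/-- the base pair -/
abbrev P0 : GolayPt × GolayPt := (none, some 0)

variable (ι d) in
/-- the element of a pair of points -/
noncomputable def DG (a b : GolayPt) : G := cj ι d P0 (a, b)

theorem DG_self (a : GolayPt) : DG ι d a a = 1 := dif_neg fun ⟨g, h⟩ => by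
  simp only [Prod.smul_mk, Prod.mk.injEq, Equiv.Perm.smul_def] at h
  exact absurd (g.1.injective (h.1.trans h.2.symm)) (by decide)

theorem Cen.DG_smul (h : Cen ι d P0) (g : M24) (a b : GolayPt) :
    DG ι d (g.1 a) (g.1 b) = ι g * DG ι d a b * (ι g)⁻¹ := h.smul g (a, b)

theorem Cen.DG_mul (h : Cen ι d P0)
    (h0 : DG ι d none (some 0) * DG ι d (some 0) (some 1) = DG ι d none (some 1)) (a b c : GolayPt) :
    DG ι d a b * DG ι d b c = DG ι d a c := by
  have tri : ∀ {a b c : GolayPt}, a ≠ b → a ≠ c → b ≠ c → DG ι d a b * DG ι d b c = DG ι d a c :=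
    fun h1 h2 h3 => by
      obtain ⟨g, rfl, rfl, rfl⟩ := three h1 h2 h3
      rw [h.DG_smul, h.DG_smul, h.DG_smul, ← h0]
      group
  by_cases h1 : a = b
  · rw [h1, DG_self, one_mul]
  by_cases h3 : b = c
  · rw [h3, DG_self, mul_one]
  by_cases h2 : a = c
  · obtain ⟨e, h4, h5⟩ := (by decide +kernel : ∀ a b : GolayPt, ∃ c, a ≠ c ∧ b ≠ c) a b
    rw [← h2, DG_self, ← mul_right_inj (DG ι d e a), ← mul_assoc, tri h4.symm h5.symm h1,
      tri h5.symm h4.symm (Ne.symm h1), mul_one]
  exact tri h1 h2 h3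

theorem map_cj {G' Ω : Type*} [Group G'] [MulAction P24 Ω] (σ : G →* G') {ι' : M24 →* G'}
    (h : σ.comp ι = ι') (A T : Ω) : σ (cj ι d A T) = cj ι' (σ d) A T := by
  unfold cj
  split_ifs
  · simp [← h]
  · simp

variable (ι) in
/-- an equivariant symmetric cocycle -/
structure DS (E : GolayPt → GolayPt → G) : Prop where
  smul : ∀ (g : M24) a b, E (g.1 a) (g.1 b) = ι g * E a b * (ι g)⁻¹
  mul : ∀ a b c, E a b * E b c = E a c
  sym : ∀ a b, E a b = E b a

variable {E : GolayPt → GolayPt → G} (h : DS ι E)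
include h

theorem DS.self (a : GolayPt) : E a a = 1 := by simpa using h.mul a a a

theorem DS.eq (a b : GolayPt) : E none a * E none b = E a b := by rw [h.sym none a, h.mul]

theorem DS.comm (a b : GolayPt) : Commute (E none a) (E none b) := by
  rw [Commute, SemiconjBy, h.eq, h.eq, h.sym]

/-- the element of a set of points -/
noncomputable def DS.nu (s : Finset GolayPt) : G :=
  s.noncommProd (E none) fun _ _ _ _ _ => h.comm _ _

theorem DS.nu_insert {a : GolayPt} {s : Finset GolayPt} (e : a ∉ s) :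
    h.nu (insert a s) = E none a * h.nu s := Finset.noncommProd_insert_of_notMem _ _ _ _ e

theorem DS.nu_symmDiff (s t : Finset GolayPt) : h.nu (symmDiff s t) = h.nu s * h.nu t := by
  induction s using Finset.induction_on with
  | empty => rw [show h.nu ∅ = 1 from rfl, one_mul]; exact congrArg h.nu (bot_symmDiff t)
  | insert a s q ih =>
    rw [h.nu_insert q, mul_assoc, ← ih]
    by_cases e : a ∈ t
    · rw [show symmDiff s t = insert a (symmDiff (insert a s) t) by grind [Finset.mem_symmDiff],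
        h.nu_insert (by simp [Finset.mem_symmDiff, e]), ← mul_assoc, h.eq, h.self, one_mul]
    · rw [← h.nu_insert (by simp [Finset.mem_symmDiff, e, q])]
      exact congrArg h.nu (by grind [Finset.mem_symmDiff])

theorem DS.nu_smul (g : M24) {s : Finset GolayPt} (q : Even s.card) :
    h.nu (g.1 • s) = ι g * h.nu s * (ι g)⁻¹ := by
  have : ∀ s : Finset GolayPt,
      ι g * h.nu s * (ι g)⁻¹ = E none (g.1 none) ^ s.card * h.nu (g.1 • s) := by
    intro s
    induction s using Finset.induction_on with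
    | empty => simp [show h.nu ∅ = 1 from rfl]
    | insert a s q ih =>
      rw [Finset.smul_finset_insert, h.nu_insert q,
        h.nu_insert (by rwa [Finset.smul_mem_smul_finset_iff]),
        Finset.card_insert_of_notMem q, pow_succ', Equiv.Perm.smul_def, mul_assoc (E _ _) (_ ^ _),
        ← mul_assoc (_ ^ _), ← ((h.comm _ _).pow_right _).eq, mul_assoc _ (_ ^ _), ← ih,
        ← mul_assoc (E _ _) (E _ _), h.eq, h.smul]
      group
  obtain ⟨n, hn⟩ := q
  rw [this, hn, ← two_mul, pow_mul, sq, h.eq, h.self, one_pow, one_mul]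

theorem DS.map_nu (σ : G →* J) (e : ∀ a, σ (E none a) = D none a) (s : Finset GolayPt) :
    σ (h.nu s) = J4B.nu s := by
  induction s using Finset.induction_on with
  | empty => exact map_one σ
  | insert a s q ih => rw [h.nu_insert q, J4B.nu_insert q, map_mul, e, ih]

theorem DS.nu_CW (hc : ∀ o ∈ octads, h.nu o ∈ Subgroup.center G) {s : Finset GolayPt}
    (hs : s ∈ CW) : h.nu s = 1 := by
  have h1 : ∀ o ∈ octads, ∀ o' ∈ octads, h.nu o' = h.nu o := fun o ho o' ho' => by
    obtain ⟨g, hg, rfl⟩ := octad_trans ho ho'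
    rw [h.nu_smul ⟨g, hg⟩ (by rw [ho.2]; decide), Subgroup.mem_center_iff.1 (hc o ho),
      mul_inv_cancel_right]
  have h0 : ∀ o ∈ octads, h.nu o = 1 := fun o ho => by
    obtain ⟨a, b, h2, h3, h4⟩ : ∃ a b : Finset GolayPt, (syn (Golay.mk a) = 0 ∧ a.card = 8) ∧ (syn (Golay.mk b) = 0 ∧ b.card = 8)
      ∧ syn (Golay.mk (symmDiff a b)) = 0 ∧ (symmDiff a b).card = 8 :=
      ⟨um 0x149f, um 0x293e, by decide +kernel⟩
    have := h.nu_symmDiff a b
    rw [h1 o ho a ⟨(mem_CW_iff_syn _).2 h2.1, h2.2⟩, h1 o ho b ⟨(mem_CW_iff_syn _).2 h3.1, h3.2⟩,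
      h1 o ho _ ⟨(mem_CW_iff_syn _).2 h4.1, h4.2⟩] at this
    simpa using this
  rw [← um_mk s, eq_cw_of_syn (syn_of_mem hs)]
  exact xorComb_induction (fun m => h.nu (um m) = 1) (by rw [um_zero]; rfl)
    (fun a b ha hb => by rw [um_xor, h.nu_symmDiff, ha, hb, mul_one])
    (fun k hk => h0 _ ⟨um_TA_mem k hk, by revert k; decide +kernel⟩) _

end Cfsg.Agent.J4B
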